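import Cfsg.Agent.FT.BG5.NarrowAut
import Cfsg.Agent.OddPre.Rank2Tower
import Cfsg.Agent.H4.CyclicMax

/-!
BG 5.7: groups whose Fitting subgroup has small centralizers of elementary abelian subgroups.
-/

set_option autoImplicit false

open scoped commutatorElement

namespace Cfsg.Agent.FT.BG5

/-- A `p`-group in which some elementary abelian subgroup has centralizer of rank at most two is
narrow. -/
theorem isNarrow_of_centralizer_rank {R : Type*} [Group R] [Finite R] {p : ℕ} [hp : Fact p.Prime]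
    (hp2 : p ≠ 2) (hR : IsPGroup p R) (E : Subgroup R) (hE : Cfsg.IsElementaryAbelian p E)
    (h : Cfsg.PRankLE p 2 ↥(Subgroup.centralizer (E : Set R))) : Cfsg.IsNarrow p R := by
  classical
  by_cases hr : Cfsg.PRankLE p 2 R
  · exact Or.inl hr
  obtain ⟨E', hEE', hmax⟩ := Finite.exists_le_maximal
    (p := fun K : Subgroup R => Cfsg.IsElementaryAbelian p K) (a := E) hE
  have hE'c : ∀ a ∈ E', ∀ b ∈ E', a * b = b * a := fun a ha b hb =>
    congrArg Subtype.val (hmax.prop.1.is_comm.comm ⟨a, ha⟩ ⟨b, hb⟩)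
  have hsat : ∀ x : R, x ^ p = 1 → (∀ e ∈ E', e * x = x * e) → x ∈ E' := by
    intro x hx hxc
    have h1 := elemAb_closure_union (p := p) hE'c hmax.prop.2 (S := {x})
      (fun a ha b hb => by rw [Set.mem_singleton_iff.mp ha, Set.mem_singleton_iff.mp hb])
      (fun a ha => by rw [Set.mem_singleton_iff.mp ha]; exact hx)
      (fun a ha b hb => by rw [Set.mem_singleton_iff.mp hb]; exact hxc a ha)
    exact hmax.le_of_ge h1 (fun e he => Subgroup.subset_closure (Or.inl he))
      (Subgroup.subset_closure (Or.inr rfl))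
  have hE'C : E' ≤ Subgroup.centralizer (E : Set R) := fun x hx =>
    Subgroup.mem_centralizer_iff.mpr fun e he => hE'c e (hEE' he) x hx
  have hle : Nat.card E' ≤ p ^ 2 := by
    have h1 := PGroup.pRankLE_of_le hE'C h ⊤
      ⟨⟨fun a b => Subtype.ext (hmax.prop.1.is_comm.comm (a : E') b)⟩⟩
      (fun a _ => Subtype.ext (by simpa using hmax.prop.2 a a.2))
    rwa [Subgroup.card_top] at h1
  haveI : Nontrivial R := by
    by_contra hn
    rw [not_nontrivial_iff_subsingleton] at hn
    exact hr fun A _ _ => by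
      rw [Nat.card_of_subsingleton (1 : A)]
      exact Nat.one_le_pow _ _ hp.out.pos
  haveI := hR.center_nontrivial
  obtain ⟨c, hc⟩ := exists_prime_orderOf_dvd_card' p
    ((hR.to_subgroup (Subgroup.center R)).card_eq_or_dvd.resolve_left
      (Finite.one_lt_card (α := Subgroup.center R)).ne')
  have hco : orderOf (c : R) = p := by rw [Subgroup.orderOf_coe, hc]
  have hcE : (c : R) ∈ E' := hsat c (by rw [← hco, pow_orderOf_eq_one]) fun e _ =>
    Subgroup.mem_center_iff.mp c.2 e
  have hcle : Subgroup.zpowers (c : R) ≤ E' := Subgroup.zpowers_le.mpr hcE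
  have hcard : Nat.card E' = p ^ 2 := by
    refine le_antisymm hle ?_
    by_contra hlt
    apply hr
    have heq : E' = Subgroup.zpowers (c : R) := by
      refine (Subgroup.eq_of_le_of_card_ge hcle ?_).symm
      obtain ⟨i, hi⟩ := IsPGroup.iff_card.mp (hR.to_subgroup E')
      rw [hi, Nat.card_zpowers, hco]
      rw [hi, not_le, Nat.pow_lt_pow_iff_right hp.out.one_lt] at hlt
      exact (Nat.pow_le_pow_right hp.out.pos (show i ≤ 1 by omega)).trans_eq (pow_one p)
    intro A hAc hAe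
    refine le_trans (Subgroup.card_le_of_le fun a ha => hsat a (hAe a ha) fun e he => ?_) hle
    rw [heq] at he
    obtain ⟨k, rfl⟩ := he
    exact (Subgroup.mem_center_iff.mp (zpow_mem c.2 k) a).symm
  obtain ⟨hET, -, -, hTchar, hTidx⟩ := structure_of_max_elemAb_sq hp2 hR hr E' hmax.prop hcard
    fun B hB hle' => le_antisymm (hmax.le_of_ge hB hle') hle'
  set T := Subgroup.centralizer ((Subgroup.closure
    {x : R | x ∈ Subgroup.upperCentralSeries R 2 ∧ x ^ p = 1} : Subgroup R) : Set R)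
  haveI := hTchar
  have hcT : (c : R) ∈ T := Subgroup.center_le_centralizer _ c.2
  obtain ⟨e, he, heT⟩ := SetLike.not_le_iff_exists.mp hET
  have he1 : e ≠ 1 := fun h' => heT (h' ▸ one_mem _)
  have heo : orderOf e = p := orderOf_eq_prime (hmax.prop.2 e he) he1
  have hR₀ : Nat.card (Subgroup.zpowers e) = p := by rw [Nat.card_zpowers, heo]
  have hinf : Subgroup.zpowers e ⊓ T = ⊥ := by
    refine (Subgroup.eq_bot_iff_forall _).mpr fun x hx => ?_
    by_contra hx1
    obtain ⟨k, hk⟩ := mem_zpowers_of_prime_card hR₀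
      (g := (⟨x, hx.1⟩ : Subgroup.zpowers e)) (g' := ⟨e, Subgroup.mem_zpowers e⟩)
      (fun h' => hx1 (congrArg Subtype.val h'))
    have h' : x ^ k = e := congrArg Subtype.val hk
    exact heT (h' ▸ zpow_mem (Subgroup.mem_inf.mp hx).2 k)
  set R₁ := T ⊓ Subgroup.centralizer ((Subgroup.zpowers e : Subgroup R) : Set R)
  have hR₁e : ∀ x ∈ R₁, Commute e x := fun x hx =>
    Subgroup.mem_centralizer_iff.mp hx.2 e (Subgroup.mem_zpowers e)
  refine Or.inr ⟨Subgroup.zpowers e, R₁, hR₀, ?_, ?_, ?_, ?_⟩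
  · refine H4.isCyclic_of_card_pow_le hp2 (hR.to_subgroup R₁) ?_
    have hsup : Subgroup.zpowers e ⊔ Subgroup.zpowers (c : R) = E' := by
      refine Subgroup.eq_of_le_of_card_ge (sup_le (Subgroup.zpowers_le.mpr he) hcle) ?_
      obtain ⟨i, hi⟩ := IsPGroup.iff_card.mp
        (hR.to_subgroup (Subgroup.zpowers e ⊔ Subgroup.zpowers (c : R) : Subgroup R))
      have hlt : Nat.card (Subgroup.zpowers (c : R)) <
          Nat.card (Subgroup.zpowers e ⊔ Subgroup.zpowers (c : R) : Subgroup R) :=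
        Set.ncard_lt_ncard (s := (Subgroup.zpowers (c : R) : Set R)) (SetLike.coe_ssubset_coe.mpr
          ((le_sup_right : Subgroup.zpowers (c : R) ≤ _).lt_of_ne fun h' => heT
            (Subgroup.zpowers_le.mpr hcT (h'.ge (Subgroup.mem_sup_left (Subgroup.mem_zpowers e))))))
          (Set.toFinite _)
      rw [hi, Nat.card_zpowers, hco] at hlt
      rw [hi, hcard]
      refine Nat.pow_le_pow_right hp.out.pos ?_
      by_contra hi2
      exact hlt.not_ge ((Nat.pow_le_pow_right hp.out.pos (show i ≤ 1 by omega)).trans_eq (pow_one p))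
    have hsmall : Nat.card (E' ⊓ T : Subgroup R) ≤ p := by
      obtain ⟨i, hi⟩ := IsPGroup.iff_card.mp (hR.to_subgroup (E' ⊓ T : Subgroup R))
      have hlt : Nat.card (E' ⊓ T : Subgroup R) < Nat.card E' :=
        Set.ncard_lt_ncard (s := ((E' ⊓ T : Subgroup R) : Set R)) (SetLike.coe_ssubset_coe.mpr
          ((inf_le_left : E' ⊓ T ≤ E').lt_of_ne fun h' => hET (h'.ge.trans inf_le_right)))
          (Set.toFinite _)
      rw [hi, hcard, Nat.pow_lt_pow_iff_right hp.out.one_lt] at hlt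
      rw [hi]
      exact (Nat.pow_le_pow_right hp.out.pos (show i ≤ 1 by omega)).trans_eq (pow_one p)
    refine le_trans ?_ hsmall
    have hmem : ∀ x : {x : R₁ // x ^ p = 1}, ((x : R₁) : R) ∈ E' ⊓ T := fun x => by
      refine Subgroup.mem_inf.mpr ⟨hsat _ (by rw [← Subgroup.coe_pow, x.2, Subgroup.coe_one]) ?_,
        (x : R₁).2.1⟩
      intro a ha
      rw [← hsup] at ha
      have hle' : Subgroup.zpowers e ⊔ Subgroup.zpowers (c : R) ≤
          Subgroup.centralizer {((x : R₁) : R)} :=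
        sup_le (Subgroup.zpowers_le.mpr (Subgroup.mem_centralizer_singleton_iff.mpr
          (hR₁e _ (x : R₁).2).eq)) (Subgroup.zpowers_le.mpr (Subgroup.center_le_centralizer _ c.2))
      exact Subgroup.mem_centralizer_singleton_iff.mp (hle' ha)
    exact Nat.card_le_card_of_injective (fun x => (⟨_, hmem x⟩ : ↥(E' ⊓ T)))
      fun x y hxy => Subtype.ext (Subtype.ext (congrArg (fun t : ↥(E' ⊓ T) => (t : R)) hxy))
  · exact eq_bot_iff.mpr fun x hx => hinf.le (Subgroup.mem_inf.mpr ⟨hx.1, hx.2.1⟩)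
  · rintro a ⟨k, rfl⟩ b hb
    exact ((hR₁e b hb).zpow_left k).eq
  · refine le_antisymm (sup_le ?_ inf_le_right) fun x hx => ?_
    · rintro a ⟨k, rfl⟩
      refine Subgroup.mem_centralizer_iff.mpr ?_
      rintro b ⟨l, rfl⟩
      exact ((Commute.refl e).zpow_zpow l k).eq
    · have hQ : Nat.card (R ⧸ T) = p := by rw [← Subgroup.index_eq_card, hTidx]
      obtain ⟨k, hk⟩ := mem_zpowers_of_prime_card hQ (g := ((e : R) : R ⧸ T)) (g' := (x : R ⧸ T))
        (fun h' => heT ((QuotientGroup.eq_one_iff e).mp h'))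
      have hmem : (e ^ k)⁻¹ * x ∈ T := QuotientGroup.eq.mp hk
      have hec : e ^ k ∈ Subgroup.centralizer ((Subgroup.zpowers e : Subgroup R) : Set R) := by
        refine Subgroup.mem_centralizer_iff.mpr ?_
        rintro b ⟨l, rfl⟩
        exact ((Commute.refl e).zpow_zpow l k).eq
      have h1 : (e ^ k)⁻¹ * x ∈ R₁ := Subgroup.mem_inf.mpr ⟨hmem, mul_mem (inv_mem hec) hx⟩
      exact mul_inv_cancel_left (e ^ k) x ▸
        Subgroup.mul_mem_sup (Subgroup.zpow_mem _ (Subgroup.mem_zpowers e) k) h1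

variable {G : Type*} [Group G] [Finite G] [Group.IsSolvable G]

/-- If elements of `G'` of order prime to `s` centralize `O_s(G)` for every prime `s`, then `G'`
lies in the Fitting subgroup. -/
theorem commutator_le_fitting
    (hC : ∀ s : ℕ, s.Prime → ∀ x ∈ commutator G, (orderOf x).Coprime s →
      x ∈ Subgroup.centralizer (Cfsg.pCore s G : Set G)) :
    commutator G ≤ Cfsg.fittingSubgroup G := by
  suffices key : ∀ q : ℕ, q.Prime → ∀ x ∈ commutator G, (∃ i : ℕ, orderOf x = q ^ i) →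
      x ∈ Cfsg.fittingSubgroup G by
    set K := (Cfsg.fittingSubgroup G).subgroupOf (commutator G)
    have hK : K = ⊤ := Cores.eq_top_of_forall_sylow_le K fun q hq => by
      haveI := Fact.mk hq
      obtain ⟨P⟩ := (inferInstance : Nonempty (Sylow q ↥(commutator G)))
      refine ⟨P, fun x hx => ?_⟩
      obtain ⟨i, hi⟩ := IsPGroup.iff_orderOf.1 P.isPGroup' ⟨x, hx⟩
      exact key q hq x x.2 ⟨i, by rw [Subgroup.orderOf_coe, ← hi, ← Subgroup.orderOf_coe (⟨x, hx⟩ : (P : Subgroup _))]⟩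
    exact fun x hx => (hK.ge (Subgroup.mem_top ⟨x, hx⟩) : _)
  intro q hq x hx hxq
  haveI := Fact.mk hq
  set π := QuotientGroup.mk' (Cfsg.pCore q G)
  let Y : Subgroup G := commutator G ⊓
    ⨅ s : {s : Nat.Primes // (s : ℕ) ≠ q}, Subgroup.centralizer (Cfsg.pCore (s : ℕ) G : Set G)
  haveI hYn : Y.Normal := by
    haveI : (⨅ s : {s : Nat.Primes // (s : ℕ) ≠ q},
        Subgroup.centralizer (Cfsg.pCore (s : ℕ) G : Set G)).Normal :=
      ⟨fun y hy g => Subgroup.mem_iInf.mpr fun s =>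
        (inferInstance : (Subgroup.centralizer (Cfsg.pCore (s : ℕ) G : Set G)).Normal).conj_mem y
          (Subgroup.mem_iInf.mp hy s) g⟩
    exact inferInstance
  have hxY : x ∈ Y := by
    obtain ⟨i, hi⟩ := hxq
    refine Subgroup.mem_inf.mpr ⟨hx, Subgroup.mem_iInf.mpr fun s => hC _ s.1.2 x hx ?_⟩
    rw [hi]
    exact ((Nat.coprime_primes hq s.1.2).mpr (Ne.symm s.2)).pow_left i
  set Yb := Y.map π
  have hcent : ∀ y ∈ Y, y ∈ Subgroup.centralizer (Cfsg.pCore q G : Set G) →
      ∀ z ∈ Y, Commute (π y) (π z) := by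
    intro y hy hyq z hz
    have hyF : y ∈ Cfsg.fittingSubgroup G := by
      apply Cores.centralizer_fittingSubgroup_le
      rw [Cores.fittingSubgroup_eq_iSup_pCore, Subgroup.mem_centralizer_iff]
      intro f hf
      suffices h : f ∈ Subgroup.centralizer ({y} : Set G) from
        Subgroup.mem_centralizer_singleton_iff.1 h
      refine (iSup_le fun s => ?_ : (⨆ s : Nat.Primes, Cfsg.pCore (s : ℕ) G) ≤ _) hf
      intro t ht
      refine Subgroup.mem_centralizer_singleton_iff.2 ?_
      by_cases hsq : (s : ℕ) = q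
      · exact Subgroup.mem_centralizer_iff.1 hyq t (hsq ▸ ht)
      · exact Subgroup.mem_centralizer_iff.1 (Subgroup.mem_iInf.mp hy.2 ⟨s, hsq⟩) t ht
    have hle : Cfsg.fittingSubgroup G ≤ (Subgroup.centralizer ({π z} : Set _)).comap π := by
      rw [Cores.fittingSubgroup_eq_iSup_pCore]
      refine iSup_le fun s t ht => Subgroup.mem_comap.2 (Subgroup.mem_centralizer_singleton_iff.2 ?_)
      by_cases hsq : (s : ℕ) = q
      · rw [show π t = 1 from (QuotientGroup.eq_one_iff t).2 (hsq ▸ ht), one_mul, mul_one]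
      · rw [← map_mul, ← map_mul,
          Subgroup.mem_centralizer_iff.1 (Subgroup.mem_iInf.mp hz.2 ⟨s, hsq⟩) t ht]
    exact Subgroup.mem_centralizer_singleton_iff.1 (hle hyF)
  haveI hnil : Group.IsNilpotent Yb := by
    refine Group.of_quotient_center_nilpotent (IsPGroup.isNilpotent (p := q) fun t => ?_)
    obtain ⟨⟨_, y, hy, rfl⟩, rfl⟩ := QuotientGroup.mk'_surjective _ t
    obtain ⟨k, m, hm, hkm⟩ := Nat.exists_eq_pow_mul_and_not_dvd (orderOf_pos y).ne' q hq.ne_one
    refine ⟨k, ?_⟩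
    rw [← map_pow]
    refine (QuotientGroup.eq_one_iff _).2 (Subgroup.mem_center_iff.2 ?_)
    rintro ⟨_, z, hz, rfl⟩
    have hcop : (orderOf (y ^ q ^ k)).Coprime q := by
      rw [orderOf_pow' _ (pow_ne_zero _ hq.ne_zero), hkm, Nat.gcd_eq_right (dvd_mul_right _ _),
        Nat.mul_div_cancel_left _ (pow_pos hq.pos k)]
      exact (hq.coprime_iff_not_dvd.2 hm).symm
    have h1 := hcent _ (pow_mem hy _) (hC q hq _ (pow_mem hy.1 _) hcop) z hz
    apply Subtype.ext
    simpa using h1.eq.symm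
  haveI : Yb.Normal := hYn.map π (QuotientGroup.mk'_surjective _)
  have hxF : π x ∈ Cfsg.fittingSubgroup (G ⧸ Cfsg.pCore q G) :=
    Cores.le_fittingSubgroup inferInstance hnil ⟨x, hxY, rfl⟩
  have h1 := OddPre.Rank2.mem_pCore_of_mem_fitting (q := q) hxF (by
    obtain ⟨i, hi⟩ := hxq
    obtain ⟨j, -, hj⟩ := (Nat.dvd_prime_pow hq).mp (hi ▸ orderOf_map_dvd π x)
    exact ⟨j, hj⟩)
  rw [Cores.pCore_quotient_pCore_eq_bot, Subgroup.mem_bot] at h1
  exact Cores.pCore_le_fittingSubgroup ((QuotientGroup.eq_one_iff x).1 h1)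

end Cfsg.Agent.FT.BG5
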